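import Cfsg.Agent.H10.U6T.Main

/-!
# The centraliser of a 3-transposition of the presented Fi22 is `2.U₆(2)`: the proof (helper10)
-/

set_option autoImplicit false
set_option maxHeartbeats 1600000

namespace Cfsg.Agent.H10.U6T

open Cfsg Cfsg.Agent.H35 Cfsg.Spor Cfsg.Agent.H10 Cfsg.Agent.H98 Matrix

theorem u6_main : Cfsg.IsNonsplitDoubleCover ↥Ks (Cfsg.PSU 6 GF4 2) := by
  have hN : 0 < t1687_pd.N := by decide
  obtain ⟨ρ, hw, hst, htr⟩ := tc_core u6_hyp hN
  obtain ⟨hcard, hsim⟩ := Fi22T.fi22_main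
  have hfin : Finite Fi22 := Nat.finite_of_card_ne_zero (by rw [hcard]; norm_num)
  have hidx : Ks.index = 3510 := tc_index u6_hyp
  have hKcard : Nat.card Ks = 18393661440 := by
    have h1 := Subgroup.card_mul_index Ks
    rw [hidx, hcard] at h1
    exact Nat.eq_of_mul_eq_mul_right (by norm_num : 0 < 3510) (h1.trans (by norm_num))
  have hb1 : 1 < t1687_pd.N := by decide
  -- the representation is faithful
  have hinj : Function.Injective ρ := by
    rw [← MonoidHom.ker_eq_bot_iff]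
    rcases hsim.eq_bot_or_eq_top_of_normal ρ.ker inferInstance with h | h
    · exact h
    · exfalso
      have hm : fi22_gen .a ∈ ρ.ker := by rw [h]; exact Subgroup.mem_top _
      rw [MonoidHom.mem_ker] at hm
      have h1 := hw [.a] ⟨1, hb1⟩
      rw [uw_singleton, hm, inv_one] at h1
      exact ul_a_ne h1
  -- words with the same walks are equal
  have hwalk : ∀ w1 w2 : List Fi22.Gen,
      (∀ p, p < 3510 → t1687_pd.walk w1 p = t1687_pd.walk w2 p) →
      uw fi22_gen w1 = uw fi22_gen w2 := by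
    intro w1 w2 h
    apply hinj
    have h2 : (ρ (uw fi22_gen w1))⁻¹ = (ρ (uw fi22_gen w2))⁻¹ := by
      apply Equiv.ext
      intro p
      apply Fin.ext
      rw [← hw, ← hw]
      exact h p.val p.isLt
    exact inv_injective h2
  -- the base
  let b0 : Fin t1687_pd.N := ⟨0, hN⟩
  let p1 : Fin t1687_pd.N := ⟨637, by decide⟩
  let p2 : Fin t1687_pd.N := ⟨92, by decide⟩
  let p3 : Fin t1687_pd.N := ⟨155, by decide⟩
  let p4 : Fin t1687_pd.N := ⟨88, by decide⟩
  let p5 : Fin t1687_pd.N := ⟨16, by decide⟩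
  let p6 : Fin t1687_pd.N := ⟨6, by decide⟩
  obtain ⟨c1, c2, c3, c4, c5, c6⟩ := ul_clsb
  let K2 : Subgroup Fi22 := ⊤ ⊓ stabOf ρ b0
  let K3 : Subgroup Fi22 := K2 ⊓ stabOf ρ p1
  let K4 : Subgroup Fi22 := K3 ⊓ stabOf ρ p2
  let K5 : Subgroup Fi22 := K4 ⊓ stabOf ρ p3
  let K6 : Subgroup Fi22 := K5 ⊓ stabOf ρ p4
  let K7 : Subgroup Fi22 := K6 ⊓ stabOf ρ p5
  let K8 : Subgroup Fi22 := K7 ⊓ stabOf ρ p6
  have hK2 : ∀ w ∈ ul_ws1, uw fi22_gen w ∈ K2 := fun w hwm =>
    ⟨Subgroup.mem_top _, fixOK_mem fi22_gen ρ hw ul_ws1 _ ul_fix1 w hwm b0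
      (by show (0 : ℕ) ∈ _; decide)⟩
  have hK3 : ∀ w ∈ ul_ws2, uw fi22_gen w ∈ K3 := fun w hwm =>
    ⟨⟨Subgroup.mem_top _, fixOK_mem fi22_gen ρ hw ul_ws2 _ ul_fix2 w hwm b0
      (by show (0 : ℕ) ∈ _; decide)⟩,
      fixOK_mem fi22_gen ρ hw ul_ws2 _ ul_fix2 w hwm p1 (by decide)⟩
  have hK4 : ∀ w ∈ ul_ws3, uw fi22_gen w ∈ K4 := fun w hwm =>
    ⟨⟨⟨Subgroup.mem_top _, fixOK_mem fi22_gen ρ hw ul_ws3 _ ul_fix3 w hwm b0
      (by show (0 : ℕ) ∈ _; decide)⟩,
      fixOK_mem fi22_gen ρ hw ul_ws3 _ ul_fix3 w hwm p1 (by decide)⟩,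
      fixOK_mem fi22_gen ρ hw ul_ws3 _ ul_fix3 w hwm p2 (by decide)⟩
  have hK5 : ∀ w ∈ ul_ws4, uw fi22_gen w ∈ K5 := fun w hwm =>
    ⟨⟨⟨⟨Subgroup.mem_top _, fixOK_mem fi22_gen ρ hw ul_ws4 _ ul_fix4 w hwm b0
      (by show (0 : ℕ) ∈ _; decide)⟩,
      fixOK_mem fi22_gen ρ hw ul_ws4 _ ul_fix4 w hwm p1 (by decide)⟩,
      fixOK_mem fi22_gen ρ hw ul_ws4 _ ul_fix4 w hwm p2 (by decide)⟩,
      fixOK_mem fi22_gen ρ hw ul_ws4 _ ul_fix4 w hwm p3 (by decide)⟩
  have hK6 : ∀ w ∈ ul_ws5, uw fi22_gen w ∈ K6 := fun w hwm =>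
    ⟨⟨⟨⟨⟨Subgroup.mem_top _, fixOK_mem fi22_gen ρ hw ul_ws5 _ ul_fix5 w hwm b0
      (by show (0 : ℕ) ∈ _; decide)⟩,
      fixOK_mem fi22_gen ρ hw ul_ws5 _ ul_fix5 w hwm p1 (by decide)⟩,
      fixOK_mem fi22_gen ρ hw ul_ws5 _ ul_fix5 w hwm p2 (by decide)⟩,
      fixOK_mem fi22_gen ρ hw ul_ws5 _ ul_fix5 w hwm p3 (by decide)⟩,
      fixOK_mem fi22_gen ρ hw ul_ws5 _ ul_fix5 w hwm p4 (by decide)⟩
  have hK7 : ∀ w ∈ ul_ws6, uw fi22_gen w ∈ K7 := fun w hwm =>
    ⟨⟨⟨⟨⟨⟨Subgroup.mem_top _, fixOK_mem fi22_gen ρ hw ul_ws6 _ ul_fix6 w hwm b0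
      (by show (0 : ℕ) ∈ _; decide)⟩,
      fixOK_mem fi22_gen ρ hw ul_ws6 _ ul_fix6 w hwm p1 (by decide)⟩,
      fixOK_mem fi22_gen ρ hw ul_ws6 _ ul_fix6 w hwm p2 (by decide)⟩,
      fixOK_mem fi22_gen ρ hw ul_ws6 _ ul_fix6 w hwm p3 (by decide)⟩,
      fixOK_mem fi22_gen ρ hw ul_ws6 _ ul_fix6 w hwm p4 (by decide)⟩,
      fixOK_mem fi22_gen ρ hw ul_ws6 _ ul_fix6 w hwm p5 (by decide)⟩
  -- the orbit of the first base point in the 693-orbit
  have horb1 : ∀ x : Fin t1687_pd.N, 1 ≤ fld 16 (ul_lab x.val) 0 → ∃ g ∈ K2, ρ g p1 = x :=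
    fun x hx => lvl_orbit fi22_gen ρ hw K2 ul_lab 0 ul_ws1 p1 hK2
      (allR_all _ _ 12 (by decide) ul_lvl1) _ x rfl hx
  have s1 : 3510 * Nat.card K2 ≤ Nat.card (⊤ : Subgroup Fi22) := by
    have := level_step ρ ⊤ b0 Finset.univ (fun x _ => by
      obtain ⟨g, hg⟩ := htr x
      exact ⟨g, Subgroup.mem_top g, hg⟩)
    rw [Finset.card_univ, Fintype.card_fin] at this
    exact this
  have s2 : 693 * Nat.card K3 ≤ Nat.card K2 := by
    have := level_step ρ K2 p1
      (Finset.univ.filter (fun p : Fin t1687_pd.N => Nat.ble 1 (fld 16 (ul_lab p.val) 0) = true))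
      (fun x hx => by
        rw [Finset.mem_filter, Nat.ble_eq] at hx
        exact horb1 x hx.2)
    rw [card_filter_fin (fun i => Nat.ble 1 (fld 16 (ul_lab i) 0)) t1687_pd.N 12 (by decide)] at this
    rw [show cntR (fun i => Nat.ble 1 (fld 16 (ul_lab i) 0)) t1687_pd.N 12 0 = 693 from ul_cnt1]
      at this
    exact this
  have s3 : 512 * Nat.card K4 ≤ Nat.card K3 := by
    have := level_step ρ K3 p2
      (Finset.univ.filter (fun p : Fin t1687_pd.N => Nat.ble 1 (fld 16 (ul_lab p.val) 2) = true))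
      (fun x hx => by
        rw [Finset.mem_filter, Nat.ble_eq] at hx
        exact lvl_orbit fi22_gen ρ hw K3 ul_lab 2 ul_ws2 p2 hK3
          (allR_all _ _ 12 (by decide) ul_lvl2) _ x rfl hx.2)
    rw [card_filter_fin (fun i => Nat.ble 1 (fld 16 (ul_lab i) 2)) t1687_pd.N 12 (by decide)] at this
    rw [show cntR (fun i => Nat.ble 1 (fld 16 (ul_lab i) 2)) t1687_pd.N 12 0 = 512 from ul_cnt2]
      at this
    exact this
  have s4 : 135 * Nat.card K5 ≤ Nat.card K4 := by
    have := level_step ρ K4 p3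
      (Finset.univ.filter (fun p : Fin t1687_pd.N => Nat.ble 1 (fld 16 (ul_lab p.val) 4) = true))
      (fun x hx => by
        rw [Finset.mem_filter, Nat.ble_eq] at hx
        exact lvl_orbit fi22_gen ρ hw K4 ul_lab 4 ul_ws3 p3 hK4
          (allR_all _ _ 12 (by decide) ul_lvl3) _ x rfl hx.2)
    rw [card_filter_fin (fun i => Nat.ble 1 (fld 16 (ul_lab i) 4)) t1687_pd.N 12 (by decide)] at this
    rw [show cntR (fun i => Nat.ble 1 (fld 16 (ul_lab i) 4)) t1687_pd.N 12 0 = 135 from ul_cnt3]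
      at this
    exact this
  have s5 : 32 * Nat.card K6 ≤ Nat.card K5 := by
    have := level_step ρ K5 p4
      (Finset.univ.filter (fun p : Fin t1687_pd.N => Nat.ble 1 (fld 16 (ul_lab p.val) 6) = true))
      (fun x hx => by
        rw [Finset.mem_filter, Nat.ble_eq] at hx
        exact lvl_orbit fi22_gen ρ hw K5 ul_lab 6 ul_ws4 p4 hK5
          (allR_all _ _ 12 (by decide) ul_lvl4) _ x rfl hx.2)
    rw [card_filter_fin (fun i => Nat.ble 1 (fld 16 (ul_lab i) 6)) t1687_pd.N 12 (by decide)] at this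
    rw [show cntR (fun i => Nat.ble 1 (fld 16 (ul_lab i) 6)) t1687_pd.N 12 0 = 32 from ul_cnt4]
      at this
    exact this
  have s6 : 3 * Nat.card K7 ≤ Nat.card K6 := by
    have := level_step ρ K6 p5
      (Finset.univ.filter (fun p : Fin t1687_pd.N => Nat.ble 1 (fld 16 (ul_lab p.val) 8) = true))
      (fun x hx => by
        rw [Finset.mem_filter, Nat.ble_eq] at hx
        exact lvl_orbit fi22_gen ρ hw K6 ul_lab 8 ul_ws5 p5 hK6
          (allR_all _ _ 12 (by decide) ul_lvl5) _ x rfl hx.2)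
    rw [card_filter_fin (fun i => Nat.ble 1 (fld 16 (ul_lab i) 8)) t1687_pd.N 12 (by decide)] at this
    rw [show cntR (fun i => Nat.ble 1 (fld 16 (ul_lab i) 8)) t1687_pd.N 12 0 = 3 from ul_cnt5]
      at this
    exact this
  have s7 : 2 * Nat.card K8 ≤ Nat.card K7 := by
    have := level_step ρ K7 p6
      (Finset.univ.filter (fun p : Fin t1687_pd.N => Nat.ble 1 (fld 16 (ul_lab p.val) 10) = true))
      (fun x hx => by
        rw [Finset.mem_filter, Nat.ble_eq] at hx
        exact lvl_orbit fi22_gen ρ hw K7 ul_lab 10 ul_ws6 p6 hK7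
          (allR_all _ _ 12 (by decide) ul_lvl6) _ x rfl hx.2)
    rw [card_filter_fin (fun i => Nat.ble 1 (fld 16 (ul_lab i) 10)) t1687_pd.N 12 (by decide)] at this
    rw [show cntR (fun i => Nat.ble 1 (fld 16 (ul_lab i) 10)) t1687_pd.N 12 0 = 2 from ul_cnt6]
      at this
    exact this
  have hK8 : Nat.card K8 ≤ 2 := by
    have htop : Nat.card (⊤ : Subgroup Fi22) = Nat.card Fi22 := Subgroup.card_top
    omega
  -- the 693-orbit is invariant under the subgroup
  let S : Subgroup Fi22 :=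
    { carrier := {g | ∀ p : Fin t1687_pd.N, t1687_pd.cls (ρ g p).val = 2 ↔ t1687_pd.cls p.val = 2}
      one_mem' := fun p => by rw [map_one]; rfl
      mul_mem' := fun {a b} ha hb p => by
        rw [map_mul, Equiv.Perm.mul_apply]
        exact (ha _).trans (hb p)
      inv_mem' := fun {a} ha p => by
        have h := ha (ρ a⁻¹ p)
        rw [← Equiv.Perm.mul_apply, ← map_mul, mul_inv_cancel, map_one] at h
        exact h.symm }
  have hKS : Ks ≤ S := by
    rw [Subgroup.closure_le]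
    rintro _ ⟨w, hwm, rfl⟩
    have h1 : (uw fi22_gen w)⁻¹ ∈ S := by
      intro p
      rw [map_inv, ← hw]
      have ha := allR_all _ 3510 12 (by norm_num) ul_inv p.val p.isLt
      have hb := allR_all _ 3510 12 (by norm_num) ul_inv2 p.val p.isLt
      rw [List.all_eq_true] at ha hb
      have ha' := ha w hwm
      have hb' := hb w hwm
      rw [Bool.or_eq_true] at ha' hb'
      constructor
      · intro h2
        rcases hb' with h3 | h3
        · rw [h2] at h3; exact absurd h3 (by decide)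
        · exact Nat.eq_of_beq_eq_true h3
      · intro h2
        rcases ha' with h3 | h3
        · rw [h2] at h3; exact absurd h3 (by decide)
        · exact Nat.eq_of_beq_eq_true h3
    have h2 := S.inv_mem h1
    rw [inv_inv] at h2
    exact h2
  have hinvO : ∀ g ∈ Ks, ∀ p : Fin t1687_pd.N, t1687_pd.cls p.val = 2 →
      t1687_pd.cls (ρ g p).val = 2 := fun g hg p hp => (hKS hg p).mpr hp
  -- the action on the 693 points
  let pact : Ks → Fin 693 → Fin 693 := fun k i => bI (ρ k.1 (bO i))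
  have pact_one : ∀ i, pact 1 i = i := fun i => by
    show bI (ρ (1 : Fi22) (bO i)) = i
    rw [map_one]
    exact bI_bO i
  have pact_mul : ∀ (k k' : Ks) (i : Fin 693), pact (k * k') i = pact k (pact k' i) := by
    intro k k' i
    show bI (ρ (k.1 * k'.1) (bO i)) = bI (ρ k.1 (bO (bI (ρ k'.1 (bO i)))))
    rw [bO_bI _ (hinvO k'.1 k'.2 _ (cls_bO i)), map_mul]
    rfl
  let π : Ks →* Equiv.Perm (Fin 693) := homOfAct pact pact_one pact_mul
  have hπ : ∀ (k : Ks) (i : Fin 693), π k i = bI (ρ k.1 (bO i)) := fun k i => rfl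
  -- the inverse of the permutation of a word
  have hpinv : ∀ (k : Ks) (w : List Fi22.Gen), k.1 = uw fi22_gen w → ∀ i : Fin 693,
      ((π k)⁻¹ i).val = bIN (t1687_pd.walk w (bON i.val)) % 693 := by
    intro k w hk i
    rw [← map_inv, hπ]
    show bIN (ρ (k⁻¹ : Ks).1 (bO i)).val % 693 = _
    have e : (ρ (k⁻¹ : Ks).1 (bO i)).val = t1687_pd.walk w (bON i.val) := by
      rw [Subgroup.coe_inv, hk, map_inv, ← hw]
      show t1687_pd.walk w (bON i.val % 3510) = _
      rw [Nat.mod_eq_of_lt (B1 i.val i.isLt).1]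
    rw [e]
  have hstep : ∀ (w : List Fi22.Gen) (hm : uw fi22_gen w ∈ Ks) (v : Fin 6 → GF4)
      (hv : hh v v = 0),
      allR (fun i => Nat.beq (bIN (t1687_pd.walk w (bON i))) (idxN (tvf v (vec i)))) 693 10 0
        = true → π ⟨uw fi22_gen w, hm⟩ ∈ srep.range := by
    intro w hm v hv hchk
    have e : (π ⟨uw fi22_gen w, hm⟩)⁻¹ = srep (tv v hv) := by
      apply Equiv.ext
      intro i
      apply Fin.ext
      rw [hpinv ⟨_, hm⟩ w rfl i, srep_apply, sact_tv,
        Nat.eq_of_beq_eq_true (allR_all _ 693 10 (by norm_num) hchk i.val i.isLt)]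
    have e2 : π ⟨uw fi22_gen w, hm⟩ = srep (tv v hv)⁻¹ := by rw [map_inv, ← e, inv_inv]
    rw [e2]
    exact ⟨_, rfl⟩
  have hstep0 : ∀ (hm : uw fi22_gen [Fi22.Gen.a] ∈ Ks), π ⟨uw fi22_gen [.a], hm⟩ = 1 := by
    intro hm
    have e : (π ⟨uw fi22_gen [.a], hm⟩)⁻¹ = 1 := by
      apply Equiv.ext
      intro i
      apply Fin.ext
      rw [hpinv ⟨_, hm⟩ [.a] rfl i,
        Nat.eq_of_beq_eq_true (allR_all _ 693 10 (by norm_num) ul_g0 i.val i.isLt)]
      exact Nat.mod_eq_of_lt i.isLt
    exact inv_eq_one.mp e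
  have hle' : ∀ k : Ks, π k ∈ srep.range := by
    rintro ⟨g, hg⟩
    refine Subgroup.closure_induction (p := fun g hg => π ⟨g, hg⟩ ∈ srep.range) ?_ ?_ ?_ ?_ hg
    · rintro _ ⟨w, hwm, rfl⟩
      rw [ul_sw9] at hwm
      simp only [List.mem_cons, List.not_mem_nil, or_false] at hwm
      rcases hwm with rfl | rfl | rfl | rfl | rfl | rfl | rfl | rfl | rfl
      · rw [hstep0]; exact Subgroup.one_mem _
      · exact hstep _ _ vC ul_viso.1 ul_gc
      · exact hstep _ _ vD ul_viso.2.1 ul_gd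
      · exact hstep _ _ vE ul_viso.2.2.1 ul_ge
      · exact hstep _ _ vF ul_viso.2.2.2.1 ul_gf
      · exact hstep _ _ vG ul_viso.2.2.2.2.1 ul_gg
      · exact hstep _ _ vH ul_viso.2.2.2.2.2.1 ul_gh
      · exact hstep _ _ vI ul_viso.2.2.2.2.2.2.1 ul_gi
      · exact hstep _ _ vW ul_viso.2.2.2.2.2.2.2 ul_gw
    · show π 1 ∈ _
      rw [map_one]; exact Subgroup.one_mem _
    · intro x y hx hy ihx ihy
      show π (⟨x, hx⟩ * ⟨y, hy⟩) ∈ _
      rw [map_mul]; exact Subgroup.mul_mem _ ihx ihy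
    · intro x hx ihx
      show π (⟨x, hx⟩⁻¹) ∈ _
      rw [map_inv]; exact Subgroup.inv_mem _ ihx
  have hle : π.range ≤ srep.range := by
    rintro _ ⟨k, rfl⟩
    exact hle' k
  -- transitivity on the 693 points
  let x0 : Fin 693 := bI p1
  have hKst : ∀ g : Fi22, g ∈ stabOf ρ b0 → g ∈ Ks := fun g hg => by rw [hst]; exact hg
  have hstK : ∀ g : Fi22, g ∈ Ks → g ∈ stabOf ρ b0 := fun g hg => by rw [hst] at hg; exact hg
  have htrans : ∀ i : Fin 693, ∃ k : Ks, π k x0 = i := by
    intro i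
    have hl : 1 ≤ fld 16 (ul_lab (bO i).val) 0 := by
      have h := allR_all _ 3510 12 (by norm_num) ul_all (bO i).val (bO i).isLt
      rw [Bool.or_eq_true] at h
      rcases h with h | h
      · rw [cls_bO i] at h; exact absurd h (by decide)
      · exact Nat.le_of_ble_eq_true h
    obtain ⟨g, hg, hgx⟩ := horb1 (bO i) hl
    refine ⟨⟨g, hKst g hg.2⟩, ?_⟩
    rw [hπ]
    show bI (ρ g (bO (bI p1))) = i
    rw [bO_bI p1 c1, hgx, bI_bO]
  -- the centre of the unitary group acts trivially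
  have hx0 : (x0 : Fin 693).val = 285 := by
    show bIN 637 % 693 = 285
    rw [ul_x0]
  have hcz : Subgroup.center (SU 6 GF4 2) ≤ srep.ker := by
    intro z hz
    rw [MonoidHom.mem_ker]
    have h0 : srep z x0 = x0 := by
      apply Fin.ext
      show idxN (mat z *ᵥ vec (x0 : Fin 693).val) % 693 = (x0 : Fin 693).val
      rw [hx0, center_fix z hz (vec 285) ![GF4.o, GF4.z, GF4.z, GF4.z, GF4.z, GF4.z]
        (vec_iso 285 (by norm_num)).2 (vec_iso 285 (by norm_num)).1 ul_wit,
        vec_idx 285 (by norm_num)]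
    apply Equiv.ext
    intro i
    obtain ⟨k, rfl⟩ := htrans i
    obtain ⟨m, hm⟩ := hle' k
    rw [← hm]
    have hcomm : z * m = m * z := (Subgroup.mem_center_iff.mp hz m).symm
    show srep z (srep m x0) = srep m x0
    rw [← Equiv.Perm.mul_apply, ← map_mul, hcomm, map_mul, Equiv.Perm.mul_apply, h0]
  -- the kernel of the action has order at most two
  have hk : Nat.card π.ker ≤ 2 := by
    have hker : ∀ k : π.ker, k.1.1 ∈ K8 := by
      intro k
      have hk1 : π k.1 = 1 := k.2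
      have hfix : ∀ i : Fin 693, ρ k.1.1 (bO i) = bO i := by
        intro i
        have h1 : π k.1 i = i := by rw [hk1]; rfl
        have h2 := congrArg bO h1
        rw [hπ, bO_bI _ (hinvO k.1.1 k.1.2 _ (cls_bO i))] at h2
        exact h2
      have hfixp : ∀ p : Fin t1687_pd.N, t1687_pd.cls p.val = 2 → k.1.1 ∈ stabOf ρ p := by
        intro p hp
        rw [mem_stabOf, ← bO_bI p hp]
        exact hfix _
      have h0 : k.1.1 ∈ stabOf ρ b0 := hstK k.1.1 k.1.2
      exact ⟨⟨⟨⟨⟨⟨⟨Subgroup.mem_top _, h0⟩, hfixp p1 c1⟩, hfixp p2 c2⟩, hfixp p3 c3⟩,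
        hfixp p4 c4⟩, hfixp p5 c5⟩, hfixp p6 c6⟩
    let f : π.ker → K8 := fun k => ⟨k.1.1, hker k⟩
    have hf : Function.Injective f := by
      intro a b hab
      have h1 : (f a).1 = (f b).1 := congrArg Subtype.val hab
      exact Subtype.ext (Subtype.ext h1)
    exact (Nat.card_le_card_of_injective f hf).trans hK8
  -- the image has trivial centre
  have hcen : Subgroup.center π.range = ⊥ := by
    apply center_eq_bot_of_ufp π.range x0
    · intro i
      obtain ⟨k, hk⟩ := htrans i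
      exact ⟨π k, ⟨k, rfl⟩, hk⟩
    · intro i hi
      have hp : (bO i).val ≠ 637 := by
        intro h
        apply hi
        rw [← bI_bO i]
        show bI (bO i) = bI p1
        congr 1
        exact Fin.ext h
      have hchk := allR_all _ 3510 12 (by norm_num) ul_ufp (bO i).val (bO i).isLt
      rw [Bool.or_eq_true] at hchk
      rcases hchk with h | h
      · rw [cls_bO i] at h; exact absurd h (by decide)
      · rw [Bool.or_eq_true] at h
        rcases h with h | h
        · exact absurd (Nat.eq_of_beq_eq_true h) hp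
        · rw [List.any_eq_true] at h
          obtain ⟨w, hwm, hne⟩ := h
          have hmemK3 : uw fi22_gen w ∈ K3 := hK3 w hwm
          have hmemK : (uw fi22_gen w)⁻¹ ∈ Ks := Ks.inv_mem (hKst _ hmemK3.1.2)
          refine ⟨π ⟨_, hmemK⟩, ⟨_, rfl⟩, ?_, ?_⟩
          · rw [hπ]
            show bI (ρ (uw fi22_gen w)⁻¹ (bO (bI p1))) = bI p1
            rw [bO_bI p1 c1]
            congr 1
            have h3 : ρ (uw fi22_gen w) p1 = p1 := hmemK3.2
            rw [map_inv, Equiv.Perm.inv_eq_iff_eq]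
            exact h3.symm
          · intro h2
            rw [hπ] at h2
            have h3 := congrArg bO h2
            rw [bO_bI _ (hinvO _ hmemK _ (cls_bO i))] at h3
            have h4 := hw w (bO i)
            rw [← map_inv] at h4
            have h5 : t1687_pd.walk w (bO i).val = (bO i).val := by
              rw [h4]
              exact congrArg Fin.val h3
            rw [h5] at hne
            simp at hne
  -- no subgroup of index two
  have hperf : ∀ L : Subgroup Ks, L.index ≠ 2 := by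
    intro L hL
    have mem : ∀ w ∈ t1687_sw, uw fi22_gen w ∈ Ks :=
      fun w hwm => Subgroup.subset_closure ⟨w, hwm, rfl⟩
    have mA : uw fi22_gen [Fi22.Gen.a] ∈ Ks := mem _ (by decide)
    have mC : uw fi22_gen [Fi22.Gen.c] ∈ Ks := mem _ (by decide)
    have mD : uw fi22_gen [Fi22.Gen.d] ∈ Ks := mem _ (by decide)
    have mE : uw fi22_gen [Fi22.Gen.e] ∈ Ks := mem _ (by decide)
    have mF : uw fi22_gen [Fi22.Gen.f] ∈ Ks := mem _ (by decide)
    have mG : uw fi22_gen [Fi22.Gen.g] ∈ Ks := mem _ (by decide)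
    have mH : uw fi22_gen [Fi22.Gen.h] ∈ Ks := mem _ (by decide)
    have mI : uw fi22_gen [Fi22.Gen.i] ∈ Ks := mem _ (by decide)
    have mW : uw fi22_gen ul_w5 ∈ Ks := mem _ (by rw [ul_sw9]; simp)
    let A : Ks := ⟨_, mA⟩
    let C : Ks := ⟨_, mC⟩
    let D : Ks := ⟨_, mD⟩
    let E : Ks := ⟨_, mE⟩
    let F : Ks := ⟨_, mF⟩
    let G : Ks := ⟨_, mG⟩
    let H : Ks := ⟨_, mH⟩
    let I : Ks := ⟨_, mI⟩
    let W : Ks := ⟨_, mW⟩
    have edge : ∀ (x y : Fi22.Gen) (hx : uw fi22_gen [x] ∈ Ks) (hy : uw fi22_gen [y] ∈ Ks),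
        coxLabel Fi22.edges x y = 3 →
        ((⟨_, hx⟩ : Ks) * ⟨_, hy⟩) ^ (2 * 1 + 1) = 1 := by
      intro x y hx hy h3
      apply sub_pow_eq_one
      show (uw fi22_gen [x] * uw fi22_gen [y]) ^ (2 * 1 + 1) = 1
      rw [uw_singleton, uw_singleton]
      have := Fi22T.fi22_edge x y
      rw [h3] at this
      exact this
    have eCD : (C * D) ^ (2 * 1 + 1) = 1 := edge .c .d mC mD (by decide)
    have eDC : (D * C) ^ (2 * 1 + 1) = 1 := edge .d .c mD mC (by decide)
    have eDE : (D * E) ^ (2 * 1 + 1) = 1 := edge .d .e mD mE (by decide)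
    have eED : (E * D) ^ (2 * 1 + 1) = 1 := edge .e .d mE mD (by decide)
    have eEF : (E * F) ^ (2 * 1 + 1) = 1 := edge .e .f mE mF (by decide)
    have eFE : (F * E) ^ (2 * 1 + 1) = 1 := edge .f .e mF mE (by decide)
    have eFG : (F * G) ^ (2 * 1 + 1) = 1 := edge .f .g mF mG (by decide)
    have eGF : (G * F) ^ (2 * 1 + 1) = 1 := edge .g .f mG mF (by decide)
    have eDH : (D * H) ^ (2 * 1 + 1) = 1 := edge .d .h mD mH (by decide)
    have eHD : (H * D) ^ (2 * 1 + 1) = 1 := edge .h .d mH mD (by decide)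
    have eHI : (H * I) ^ (2 * 1 + 1) = 1 := edge .h .i mH mI (by decide)
    have eIH : (I * H) ^ (2 * 1 + 1) = 1 := edge .i .h mI mH (by decide)
    by_cases hC : C ∈ L
    · -- all the generators lie in `L`
      have hD : D ∈ L := by
        by_contra h
        exact not_mem_of_odd_edge L hL D C 1 eDC h hC
      have hE : E ∈ L := by
        by_contra h
        exact not_mem_of_odd_edge L hL E D 1 eED h hD
      have hF : F ∈ L := by
        by_contra h
        exact not_mem_of_odd_edge L hL F E 1 eFE h hE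
      have hG : G ∈ L := by
        by_contra h
        exact not_mem_of_odd_edge L hL G F 1 eGF h hF
      have hH : H ∈ L := by
        by_contra h
        exact not_mem_of_odd_edge L hL H D 1 eHD h hD
      have hI : I ∈ L := by
        by_contra h
        exact not_mem_of_odd_edge L hL I H 1 eIH h hH
      have eWF : (W * F) ^ (2 * 1 + 1) = 1 := by
        apply sub_pow_eq_one
        show (uw fi22_gen ul_w5 * uw fi22_gen [.f]) ^ (2 * 1 + 1) = 1
        have h := hwalk ((ul_w5 ++ [.f]) ++ (ul_w5 ++ [.f]) ++ (ul_w5 ++ [.f])) []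
          (fun p hp => Nat.eq_of_beq_eq_true (allR_all _ 3510 12 (by norm_num) ul_rel2 p hp))
        rw [uw_append, uw_append, uw_append, uw_nil] at h
        rw [← h]
        simp only [pow_succ, pow_zero, one_mul]
      have hW : W ∈ L := by
        by_contra h
        exact not_mem_of_odd_edge L hL W F 1 eWF h hF
      have hA : A ∈ L := by
        have h := hwalk (ul_U ++ ul_U ++ ul_U ++ ul_U ++ ul_U) [.a]
          (fun p hp => Nat.eq_of_beq_eq_true (allR_all _ 3510 12 (by norm_num) ul_rel4 p hp))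
        have hU : uw fi22_gen ul_U = (H * W * I * D * C * E : Ks).1 := by
          rw [ul_U_eq, uw_append, uw_append]
          show _ = uw fi22_gen [.h] * uw fi22_gen ul_w5 * uw fi22_gen [.i] * uw fi22_gen [.d] *
            uw fi22_gen [.c] * uw fi22_gen [.e]
          simp only [uw_cons, uw_nil, mul_one, mul_assoc]
        have hA5 : A = (H * W * I * D * C * E) ^ 5 := by
          apply Subtype.ext
          rw [Subgroup.coe_pow, ← hU]
          show uw fi22_gen [.a] = _
          rw [← h, uw_append, uw_append, uw_append, uw_append]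
          simp only [pow_succ, pow_zero, one_mul]
        rw [hA5]
        exact L.pow_mem (L.mul_mem (L.mul_mem (L.mul_mem (L.mul_mem (L.mul_mem hH hW) hI) hD) hC) hE) 5
      have hall : ∀ k : Ks, k ∈ L := by
        rintro ⟨g, hg⟩
        refine Subgroup.closure_induction (p := fun g hg => (⟨g, hg⟩ : Ks) ∈ L) ?_ ?_ ?_ ?_ hg
        · rintro _ ⟨w, hwm, rfl⟩
          rw [ul_sw9] at hwm
          simp only [List.mem_cons, List.not_mem_nil, or_false] at hwm
          rcases hwm with rfl | rfl | rfl | rfl | rfl | rfl | rfl | rfl | rfl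
          · exact hA
          · exact hC
          · exact hD
          · exact hE
          · exact hF
          · exact hG
          · exact hH
          · exact hI
          · exact hW
        · exact L.one_mem
        · intro x y hx hy ihx ihy
          exact L.mul_mem ihx ihy
        · intro x hx ihx
          exact L.inv_mem ihx
      have htop : L = ⊤ := by
        rw [eq_top_iff]
        intro k _
        exact hall k
      rw [htop, Subgroup.index_top] at hL
      exact absurd hL (by norm_num)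
    · -- no generator lies in `L`
      have hD : D ∉ L := not_mem_of_odd_edge L hL C D 1 eCD hC
      have hE : E ∉ L := not_mem_of_odd_edge L hL D E 1 eDE hD
      have hF : F ∉ L := not_mem_of_odd_edge L hL E F 1 eEF hE
      have hG : G ∉ L := not_mem_of_odd_edge L hL F G 1 eFG hF
      have hH : H ∉ L := not_mem_of_odd_edge L hL D H 1 eDH hD
      have hI : I ∉ L := not_mem_of_odd_edge L hL H I 1 eHI hH
      have m1 : C * D ∈ L := (Subgroup.mul_mem_iff_of_index_two hL).mpr (iff_of_false hC hD)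
      have m2 : C * D * E ∉ L := fun h =>
        hE (((Subgroup.mul_mem_iff_of_index_two hL).mp h).mp m1)
      have m3 : C * D * E * F ∈ L := (Subgroup.mul_mem_iff_of_index_two hL).mpr (iff_of_false m2 hF)
      have m4 : C * D * E * F * G ∉ L := fun h =>
        hG (((Subgroup.mul_mem_iff_of_index_two hL).mp h).mp m3)
      have m5 : C * D * E * F * G * H ∈ L :=
        (Subgroup.mul_mem_iff_of_index_two hL).mpr (iff_of_false m4 hH)
      have m6 : C * D * E * F * G * H * I ∉ L := fun h =>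
        hI (((Subgroup.mul_mem_iff_of_index_two hL).mp h).mp m5)
      have e9 : (C * D * E * F * G * H * I) ^ (2 * 4 + 1) = 1 := by
        apply sub_pow_eq_one
        have h := hwalk ([.c, .d, .e, .f, .g, .h, .i] ++ [.c, .d, .e, .f, .g, .h, .i] ++
          [.c, .d, .e, .f, .g, .h, .i] ++ [.c, .d, .e, .f, .g, .h, .i] ++
          [.c, .d, .e, .f, .g, .h, .i] ++ [.c, .d, .e, .f, .g, .h, .i] ++
          [.c, .d, .e, .f, .g, .h, .i] ++ [.c, .d, .e, .f, .g, .h, .i] ++
          [.c, .d, .e, .f, .g, .h, .i]) []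
          (fun p hp => Nat.eq_of_beq_eq_true (allR_all _ 3510 12 (by norm_num) ul_rel3 p hp))
        have e7 : uw fi22_gen [Fi22.Gen.c, .d, .e, .f, .g, .h, .i] =
            (C * D * E * F * G * H * I : Ks).1 := by
          show _ = uw fi22_gen [.c] * uw fi22_gen [.d] * uw fi22_gen [.e] * uw fi22_gen [.f] *
            uw fi22_gen [.g] * uw fi22_gen [.h] * uw fi22_gen [.i]
          simp only [uw_cons, uw_nil, mul_one, mul_assoc]
        rw [uw_append, uw_append, uw_append, uw_append, uw_append, uw_append, uw_append,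
          uw_append, uw_nil, e7] at h
        rw [← h]
        simp only [pow_succ, pow_zero, one_mul]
      have hmem : (C * D * E * F * G * H * I) ^ (2 * 4 + 1) ∈ L := by
        rw [e9]; exact L.one_mem
      rw [pow_odd_mem_iff_of_index_two L hL] at hmem
      exact m6 hmem
  exact cover_of_perm π srep hle hcz 9196830720 (by norm_num)
    (by rw [card_SU6, card_center_SU6]) (by rw [hKcard]) hk hcen hperf

end Cfsg.Agent.H10.U6T
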