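import Cfsg.Agent.H10.U6T.Cover
import Cfsg.Agent.H10.U6A.LChk
import Cfsg.Agent.H10.ThreeTrans

/-!
# The 3-transpositions of the presented Fi22 (helper10)

The generator `a` of the presented Fi22 has centraliser `⟨a, c, …, i, (abcdeh)^5⟩ = 2.U₆(2)`; its
class has 3510 elements and is a class of 3-transpositions.
-/

set_option autoImplicit false
set_option maxHeartbeats 1600000

namespace Cfsg.Agent.H10.U6T

open Cfsg Cfsg.Agent.H35 Cfsg.Spor Cfsg.Agent.H10 Cfsg.Agent.H98 Cfsg.Agent.H10.U6A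

/-- transfer of a non-split double cover along an isomorphism -/
theorem nonsplit_congr {H H' K : Type*} [Group H] [Group H'] [Group K] [Finite H] (e : H ≃* H')
    (h : Cfsg.IsNonsplitDoubleCover H K) : Cfsg.IsNonsplitDoubleCover H' K := by
  obtain ⟨h2, ⟨q⟩, hc⟩ := h
  have hfin' : Finite H' := Finite.of_equiv H e.toEquiv
  have hmap : (Subgroup.center H).map (e : H →* H') = Subgroup.center H' := by
    ext b
    simp only [Subgroup.mem_map, Subgroup.mem_center_iff]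
    constructor
    · rintro ⟨a, ha, rfl⟩ g
      obtain ⟨g', rfl⟩ := e.surjective g
      show e g' * e a = e a * e g'
      rw [← map_mul, ← map_mul, ha g']
    · intro hb
      refine ⟨e.symm b, fun g => ?_, e.apply_symm_apply b⟩
      apply e.injective
      rw [map_mul, map_mul, e.apply_symm_apply]
      exact hb (e g)
  have hcz : Nat.card (Subgroup.center H') = Nat.card (Subgroup.center H) :=
    (Nat.card_congr (Subgroup.centerCongr e).toEquiv).symm
  refine ⟨by rw [hcz, h2], ⟨(QuotientGroup.congr _ _ e hmap).symm.trans q⟩, ?_⟩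
  intro L hL
  apply hc (L.map (e.symm : H' →* H))
  rw [Subgroup.isComplement'_iff_card_mul_and_disjoint] at hL ⊢
  obtain ⟨h3, h4⟩ := hL
  constructor
  · have e1 : Nat.card (L.map (e.symm : H' →* H)) = Nat.card L :=
      Subgroup.card_map_of_injective e.symm.injective
    rw [e1, ← hcz, h3]
    exact Nat.card_congr e.symm.toEquiv
  · rw [Subgroup.disjoint_def] at h4 ⊢
    intro x hx1 hx2
    obtain ⟨y, hy, rfl⟩ := hx2
    have h5 : y ∈ Subgroup.center H' := by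
      rw [← hmap]
      exact ⟨e.symm y, hx1, e.apply_symm_apply y⟩
    have h6 := h4 h5 hy
    rw [h6]
    exact map_one _

/-- two involutions whose product is an involution commute -/
theorem comm_of_sq {G : Type*} [Group G] (a x : G) (ha : a * a = 1) (hx : x * x = 1)
    (h : (a * x) ^ 2 = 1) : x * a = a * x := by
  have h1 : a * x * (a * x) = 1 := by rw [← pow_two]; exact h
  have h2 : (a * x)⁻¹ = a * x := inv_of_sq h1
  rw [mul_inv_rev, inv_of_sq hx, inv_of_sq ha] at h2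
  exact h2

/-- the class of 3-transpositions of the presented Fi22 -/
theorem fi22_three_trans : ∃ D : Set Fi22, Cfsg.IsThreeTranspositionClass D ∧
    Nat.card D = 3510 ∧
    ∀ d ∈ D, Cfsg.IsNonsplitDoubleCover (Subgroup.centralizer ({d} : Set Fi22))
      (Cfsg.PSU 6 GF4 2) := by
  have hN : 0 < t1687_pd.N := by decide
  obtain ⟨ρ, hw, hst, htr⟩ := tc_core u6_hyp hN
  obtain ⟨hcard, hsim⟩ := Fi22T.fi22_main
  have hfin : Finite Fi22 := Nat.finite_of_card_ne_zero (by rw [hcard]; norm_num)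
  have hb1 : 1 < t1687_pd.N := by decide
  have hb2 : 2 < t1687_pd.N := by decide
  have hb6 : 6 < t1687_pd.N := by decide
  -- the representation is faithful
  have hinj : Function.Injective ρ := by
    rw [← MonoidHom.ker_eq_bot_iff]
    rcases hsim.eq_bot_or_eq_top_of_normal ρ.ker inferInstance with h | h
    · exact h
    · exfalso
      have hm : fi22_gen .a ∈ ρ.ker := by rw [h]; exact Subgroup.mem_top _
      rw [MonoidHom.mem_ker] at hm
      have h1 := hw [.a] ⟨1, hb1⟩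
      rw [uw_singleton, hm, inv_one] at h1
      exact ul_a_ne h1
  have hwalk : ∀ w1 w2 : List Fi22.Gen,
      (∀ p, p < 3510 → t1687_pd.walk w1 p = t1687_pd.walk w2 p) →
      uw fi22_gen w1 = uw fi22_gen w2 := by
    intro w1 w2 h
    apply hinj
    have h2 : (ρ (uw fi22_gen w1))⁻¹ = (ρ (uw fi22_gen w2))⁻¹ := by
      apply Equiv.ext
      intro p
      apply Fin.ext
      rw [← hw, ← hw]
      exact h p.val p.isLt
    exact inv_injective h2
  have hconj : ∀ u : List Fi22.Gen, uw fi22_gen (u.reverse ++ [.a] ++ u) =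
      (uw fi22_gen u)⁻¹ * fi22_gen .a * ((uw fi22_gen u)⁻¹)⁻¹ := by
    intro u
    rw [uw_append, uw_append, uw_reverse _ fi22_inv, uw_singleton, inv_inv]
  have ht1 : fi22_gen .a ≠ 1 := by
    intro h
    have h1 := hw [.a] ⟨1, hb1⟩
    rw [uw_singleton, h, map_one, inv_one] at h1
    exact ul_a_ne h1
  have ht2 : fi22_gen .a ^ 2 = 1 := by rw [pow_two]; exact fi22_inv .a
  have hA3 : (fi22_gen .a * ((uw fi22_gen um_uA)⁻¹ * fi22_gen .a * ((uw fi22_gen um_uA)⁻¹)⁻¹)) ^ 3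
      = 1 := by
    have h := hwalk (([.a] ++ (um_uA.reverse ++ [.a] ++ um_uA)) ++
      ([.a] ++ (um_uA.reverse ++ [.a] ++ um_uA)) ++ ([.a] ++ (um_uA.reverse ++ [.a] ++ um_uA))) []
      (fun p hp => Nat.eq_of_beq_eq_true (allR_all _ 3510 12 (by norm_num) um_relA p hp))
    rw [uw_append, uw_append, uw_append (f := fi22_gen) [.a], hconj, uw_singleton, uw_nil] at h
    rw [← h]
    simp only [pow_succ, pow_zero, one_mul]
  have hB2 : (fi22_gen .a * ((uw fi22_gen um_uB)⁻¹ * fi22_gen .a * ((uw fi22_gen um_uB)⁻¹)⁻¹)) ^ 2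
      = 1 := by
    have h := hwalk (([.a] ++ (um_uB.reverse ++ [.a] ++ um_uB)) ++
      ([.a] ++ (um_uB.reverse ++ [.a] ++ um_uB))) []
      (fun p hp => Nat.eq_of_beq_eq_true (allR_all _ 3510 12 (by norm_num) um_relB p hp))
    rw [uw_append, uw_append (f := fi22_gen) [.a], hconj, uw_singleton, uw_nil] at h
    rw [← h]
    simp only [pow_succ, pow_zero, one_mul]
  -- the subgroup centralises `a`
  have hKc : Ks ≤ Subgroup.centralizer ({fi22_gen .a} : Set Fi22) := by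
    rw [Subgroup.closure_le]
    rintro _ ⟨w, hwm, rfl⟩
    rw [SetLike.mem_coe, Subgroup.mem_centralizer_iff]
    intro x hx
    rw [Set.mem_singleton_iff] at hx
    subst hx
    rw [ul_sw9] at hwm
    simp only [List.mem_cons, List.not_mem_nil, or_false] at hwm
    rcases hwm with rfl | rfl | rfl | rfl | rfl | rfl | rfl | rfl | rfl
    · rw [uw_singleton]
    · rw [uw_singleton]
      exact (comm_of_sq _ _ (fi22_inv .a) (fi22_inv .c) (Fi22T.fi22_edge .a .c)).symm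
    · rw [uw_singleton]
      exact (comm_of_sq _ _ (fi22_inv .a) (fi22_inv .d) (Fi22T.fi22_edge .a .d)).symm
    · rw [uw_singleton]
      exact (comm_of_sq _ _ (fi22_inv .a) (fi22_inv .e) (Fi22T.fi22_edge .a .e)).symm
    · rw [uw_singleton]
      exact (comm_of_sq _ _ (fi22_inv .a) (fi22_inv .f) (Fi22T.fi22_edge .a .f)).symm
    · rw [uw_singleton]
      exact (comm_of_sq _ _ (fi22_inv .a) (fi22_inv .g) (Fi22T.fi22_edge .a .g)).symm
    · rw [uw_singleton]
      exact (comm_of_sq _ _ (fi22_inv .a) (fi22_inv .h) (Fi22T.fi22_edge .a .h)).symm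
    · rw [uw_singleton]
      exact (comm_of_sq _ _ (fi22_inv .a) (fi22_inv .i) (Fi22T.fi22_edge .a .i)).symm
    · have h := hwalk (.a :: ul_w5) (ul_w5 ++ [.a])
        (fun p hp => Nat.eq_of_beq_eq_true (allR_all _ 3510 12 (by norm_num) ul_rel1 p hp))
      rw [uw_cons, uw_append, uw_singleton] at h
      exact h
  have hcentS : ∀ s ∈ stabOf ρ ⟨0, hN⟩,
      s ∈ Subgroup.centralizer ({fi22_gen .a} : Set Fi22) := by
    intro s hs
    rw [← hst] at hs
    exact hKc hs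
  -- double cosets
  have hstA : ∀ w ∈ um_wsA, uw fi22_gen w ∈ stabOf ρ ⟨0, hN⟩ := fun w hwm =>
    fixOK_mem fi22_gen ρ hw um_wsA _ um_fixA w hwm ⟨0, hN⟩ (by show (0 : ℕ) ∈ _; decide)
  have hstB : ∀ w ∈ um_wsB, uw fi22_gen w ∈ stabOf ρ ⟨0, hN⟩ := fun w hwm =>
    fixOK_mem fi22_gen ρ hw um_wsB _ um_fixB w hwm ⟨0, hN⟩ (by show (0 : ℕ) ∈ _; decide)
  have hOA : ∀ x : Fin t1687_pd.N, 1 ≤ fld 16 (um_lab x.val) 0 →
      ∃ g ∈ stabOf ρ ⟨0, hN⟩, ρ g ⟨2, hb2⟩ = x := fun x hx =>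
    lvl_orbit fi22_gen ρ hw (stabOf ρ ⟨0, hN⟩) um_lab 0 um_wsA ⟨2, hb2⟩ hstA
      (allR_all _ _ 12 (by decide) um_lvlA) _ x rfl hx
  have hOB : ∀ x : Fin t1687_pd.N, 1 ≤ fld 16 (um_lab x.val) 2 →
      ∃ g ∈ stabOf ρ ⟨0, hN⟩, ρ g ⟨6, hb6⟩ = x := fun x hx =>
    lvl_orbit fi22_gen ρ hw (stabOf ρ ⟨0, hN⟩) um_lab 2 um_wsB ⟨6, hb6⟩ hstB
      (allR_all _ _ 12 (by decide) um_lvlB) _ x rfl hx
  have hgA : ρ ((uw fi22_gen um_uA)⁻¹) ⟨0, hN⟩ = ⟨2, hb2⟩ := by
    have h1 := hw um_uA ⟨0, hN⟩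
    apply Fin.ext
    show ((ρ ((uw fi22_gen um_uA)⁻¹)) ⟨0, hN⟩).val = 2
    rw [map_inv, ← h1]
    exact um_uA_walk
  have hgB : ρ ((uw fi22_gen um_uB)⁻¹) ⟨0, hN⟩ = ⟨6, hb6⟩ := by
    have h1 := hw um_uB ⟨0, hN⟩
    apply Fin.ext
    show ((ρ ((uw fi22_gen um_uB)⁻¹)) ⟨0, hN⟩).val = 6
    rw [map_inv, ← h1]
    exact um_uB_walk
  have hdc0 : ∀ g : Fi22, g ∈ stabOf ρ ⟨0, hN⟩ ∨
      (∃ h ∈ stabOf ρ ⟨0, hN⟩, ∃ s ∈ stabOf ρ ⟨0, hN⟩, g = h * (uw fi22_gen um_uA)⁻¹ * s) ∨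
      (∃ h ∈ stabOf ρ ⟨0, hN⟩, ∃ s ∈ stabOf ρ ⟨0, hN⟩, g = h * (uw fi22_gen um_uB)⁻¹ * s) := by
    intro g
    have hc := allR_all _ _ 12 (by decide) um_all (ρ g ⟨0, hN⟩).val (ρ g ⟨0, hN⟩).isLt
    rw [Bool.or_eq_true, Bool.or_eq_true, Nat.beq_eq, Nat.ble_eq, Nat.ble_eq] at hc
    rcases hc with hc | hc | hc
    · left
      rw [mem_stabOf]
      exact Fin.ext hc
    · right; left
      obtain ⟨h, hh, e⟩ := hOA _ hc
      refine ⟨h, hh, (h * (uw fi22_gen um_uA)⁻¹)⁻¹ * g, ?_, by group⟩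
      rw [mem_stabOf, map_mul, map_inv, Equiv.Perm.mul_apply, Equiv.Perm.inv_eq_iff_eq, map_mul,
        Equiv.Perm.mul_apply, hgA, e]
    · right; right
      obtain ⟨h, hh, e⟩ := hOB _ hc
      refine ⟨h, hh, (h * (uw fi22_gen um_uB)⁻¹)⁻¹ * g, ?_, by group⟩
      rw [mem_stabOf, map_mul, map_inv, Equiv.Perm.mul_apply, Equiv.Perm.inv_eq_iff_eq, map_mul,
        Equiv.Perm.mul_apply, hgB, e]
  -- the centraliser
  have hC : Subgroup.centralizer ({fi22_gen .a} : Set Fi22) = stabOf ρ ⟨0, hN⟩ := by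
    apply le_antisymm
    · intro g hg
      rcases hdc0 g with h | ⟨h, hh, s, hs, rfl⟩ | ⟨h, hh, s, hs, rfl⟩
      · exact h
      · exfalso
        have hA' : (uw fi22_gen um_uA)⁻¹ ∈ Subgroup.centralizer ({fi22_gen .a} : Set Fi22) := by
          have e : (uw fi22_gen um_uA)⁻¹ = h⁻¹ * (h * (uw fi22_gen um_uA)⁻¹ * s) * s⁻¹ := by group
          rw [e]
          exact Subgroup.mul_mem _ (Subgroup.mul_mem _ (Subgroup.inv_mem _ (hcentS h hh)) hg)
            (Subgroup.inv_mem _ (hcentS s hs))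
        have h3 := conj_eq_of_mem_centralizer (fi22_gen .a) _ hA'
        have h4 := hw (um_uA.reverse ++ [.a] ++ um_uA) ⟨0, hN⟩
        have h5 := hw [.a] ⟨0, hN⟩
        rw [hconj, h3] at h4
        rw [uw_singleton] at h5
        exact um_tA_ne (h4.trans h5.symm)
      · exfalso
        have hB' : (uw fi22_gen um_uB)⁻¹ ∈ Subgroup.centralizer ({fi22_gen .a} : Set Fi22) := by
          have e : (uw fi22_gen um_uB)⁻¹ = h⁻¹ * (h * (uw fi22_gen um_uB)⁻¹ * s) * s⁻¹ := by group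
          rw [e]
          exact Subgroup.mul_mem _ (Subgroup.mul_mem _ (Subgroup.inv_mem _ (hcentS h hh)) hg)
            (Subgroup.inv_mem _ (hcentS s hs))
        have h3 := conj_eq_of_mem_centralizer (fi22_gen .a) _ hB'
        have h4 := hw (um_uB.reverse ++ [.a] ++ um_uB) ⟨1, hb1⟩
        have h5 := hw [.a] ⟨1, hb1⟩
        rw [hconj, h3] at h4
        rw [uw_singleton] at h5
        exact um_tB_ne (h4.trans h5.symm)
    · exact hcentS
  have hidx : (stabOf ρ ⟨0, hN⟩).index = 3510 := by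
    rw [index_stabOf ρ ⟨0, hN⟩ htr, Fintype.card_fin]
    rfl
  have hdc : ∀ g : Fi22, g ∈ Subgroup.centralizer ({fi22_gen .a} : Set Fi22) ∨
      (∃ h ∈ Subgroup.centralizer ({fi22_gen .a} : Set Fi22),
        ∃ s ∈ Subgroup.centralizer ({fi22_gen .a} : Set Fi22),
          g = h * (uw fi22_gen um_uA)⁻¹ * s) ∨
      (∃ h ∈ Subgroup.centralizer ({fi22_gen .a} : Set Fi22),
        ∃ s ∈ Subgroup.centralizer ({fi22_gen .a} : Set Fi22),
          g = h * (uw fi22_gen um_uB)⁻¹ * s) := by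
    rw [hC]
    exact hdc0
  refine ⟨conjugatesOf (fi22_gen .a),
    threeTranspositionClass_of (fi22_gen .a) ht1 ht2 _ _ hA3 hB2 hdc, ?_, ?_⟩
  · rw [card_conjugatesOf_eq_index, hC, hidx]
  · intro d hd
    obtain ⟨c, rfl⟩ := (mem_conjOf_iff (fi22_gen .a) d).mp hd
    have hr : Ks.subtype.range = Subgroup.centralizer ({fi22_gen .a} : Set Fi22) := by
      rw [Subgroup.range_subtype, hC, hst]
    obtain ⟨e⟩ := exists_equiv_centralizer_conj Ks.subtype (Subgroup.subtype_injective _)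
      (fi22_gen .a) c hr
    exact nonsplit_congr e u6_main

end Cfsg.Agent.H10.U6T
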